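import Cfsg.Agent.CF.FocalThree.Module
import Cfsg.Agent.CF.CDQuad.Main
import Cfsg.Agent.CF.FocalOdd.Main
import Cfsg.Agent.S2768

/-!
In a minimal failure of transfer for the family `{Z, Ab ∘ J̃}` some element outside `O_p` is quadratic
on the chief factors inside `O_p`.
-/

set_option autoImplicit false
set_option linter.style.haveILetI false

open scoped commutatorElement

namespace Cfsg.Agent.CF.FocalThree

open Cfsg.Agent.Fusion Cfsg.Agent.Modules Cfsg.Agent.CF.FocalOdd

universe u

variable {Y : Type u} [Group Y] [Finite Y] {p : ℕ} [Fact p.Prime]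

namespace Fail

variable {S : Sylow p Y} {M : Subgroup Y} (D : Fail p S M)
include D

set_option maxHeartbeats 800000 in
/-- In a minimal failure some element outside `O_p` is quadratic on all chief factors below `O_p`. -/
theorem exists_quadratic (hp : p ≠ 2) : ∃ u ∈ (S : Subgroup Y), u ∉ Cfsg.pCore p Y ∧
    ∀ U V : Subgroup Y, Cfsg.IsChiefFactor U V → U ≤ Cfsg.pCore p Y →
      Cfsg.iterCommutator U (Subgroup.zpowers u) 2 ≤ V := by
  classical
  obtain ⟨L, K, V, Z₀, E⟩ := D.exists_layer hp
  haveI := E.normal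
  haveI := E.knormal
  set Q := Cfsg.pCore p Y with hQdef
  set J := jt (S : Subgroup Y) with hJ
  have hQS : Q ≤ (S : Subgroup Y) := Cores.pCore_le_sylow S
  obtain ⟨F, fF, ftF, n, ρ, hn, hF, hρ, hρK⟩ := E.sl2
  haveI : CharP F p := by
    refine (CharP.charP_iff_prime_eq_zero Fact.out).2 ?_
    have h0 : ((Fintype.card F : ℕ) : F) = 0 := FiniteField.cast_card_eq_zero F
    rw [hF, Nat.cast_pow] at h0
    exact (pow_eq_zero_iff (by omega)).1 h0
  -- the Sylow subgroup of `L`
  set S₁ := (S : Subgroup Y) ⊓ L with hS₁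
  have hS₁L : IsSyl p S₁ L := (isSyl_sylow S).inf_normal le_top (by rw [Nz, Subgroup.normalizer_eq_top])
  have hJS₁ : J ≤ S₁ := le_inf inf_le_left E.jtL
  have hQS₁ : Q ≤ S₁ := le_inf hQS E.QL
  let SL : Sylow p L := (hS₁L.isP.comap_subtype (K := L)).toSylow hS₁L.idx
  have hSL : ((SL : Subgroup L)).map L.subtype = S₁ := Subgroup.map_subgroupOf_eq_of_le hS₁L.le
  have hS₁S : (S : Subgroup Y) ≤ Nz S₁ := fun s hs => mem_Nz.2 (by
    rw [hS₁, cj_inf, cj_eq_self_of_mem hs, cj_eq_of_normal])
  -- unique maximal subgroups over large p-subgroups of the normal subgroups that cover with `S`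
  have hLmax : ∀ (N : Subgroup Y), N.Normal → ¬ N ≤ M →
      ∀ (P : Subgroup N), P.map N.subtype ≤ (S : Subgroup Y) → J ≤ P.map N.subtype →
      N ⊓ Q ≤ P.map N.subtype → ∃! X : Subgroup N, IsCoatom X ∧ P ≤ X := by
    intro N hN hNM P hPS hJP hQP
    haveI := hN
    have hall : ∀ X : Subgroup N, X ≠ ⊤ → P ≤ X → X ≤ M.subgroupOf N := by
      intro X hX hPX x hx
      have hXQ : X.map N.subtype ⊔ Q ≠ ⊤ := by
        intro he
        refine hX (eq_top_iff.2 fun y _ => ?_)
        have hy : (y : Y) ∈ X.map N.subtype ⊔ Q := he ▸ Subgroup.mem_top _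
        obtain ⟨_, ⟨a, ha, rfl⟩, q, hq, hyq⟩ := Subgroup.mem_sup_of_normal_right.1 hy
        have hq' : q = (a : Y)⁻¹ * y := by rw [← hyq]; simp
        have hqN : q ∈ N := hq' ▸ mul_mem (inv_mem a.2) y.2
        have hqX : q ∈ X.map N.subtype := Subgroup.map_mono hPX (hQP ⟨hqN, hq⟩)
        obtain ⟨z, hz, hzy⟩ : (y : Y) ∈ X.map N.subtype := hyq ▸ mul_mem ⟨a, ha, rfl⟩ hqX
        exact Subtype.ext hzy ▸ hz
      exact D.jt_over le_sup_right ((hJP.trans (Subgroup.map_mono hPX)).trans le_sup_left) hXQ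
        (Subgroup.mem_sup_left ⟨x, hx, rfl⟩)
    have hne : M.subgroupOf N ≠ ⊤ := fun h => hNM (Subgroup.subgroupOf_eq_top.1 h)
    have hPM : P ≤ M.subgroupOf N := fun x hx => D.SM (hPS ⟨x, hx, rfl⟩)
    refine ⟨M.subgroupOf N, ⟨⟨hne, fun X hX => by_contra fun h =>
      not_le_of_gt hX (hall X h (hPM.trans hX.le))⟩, hPM⟩, fun X hX => ?_⟩
    exact (((hX.1.le_iff).1 (hall X hX.1.1 hX.2)).resolve_left hne).symm
  -- normal closure of `J̃(S)` in `L`
  haveI : Finite (Matrix.SpecialLinearGroup (Fin 2) F) := inferInstance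
  let μ : L →* Matrix.ProjectiveSpecialLinearGroup (Fin 2) F :=
    (QuotientGroup.mk' (Subgroup.center (Matrix.SpecialLinearGroup (Fin 2) F))).comp ρ
  have hμ : Function.Surjective μ := (QuotientGroup.mk'_surjective _).comp hρ
  have hZL : ¬ ((SL : Subgroup L) ⊓ Subgroup.centralizer ((SL : Subgroup L) : Set L)).Normal := by
    intro hn
    haveI := hn
    set Z := ((SL : Subgroup L) ⊓ Subgroup.centralizer ((SL : Subgroup L) : Set L)).map L.subtype
      with hZdef
    have hZ : Z = S₁ ⊓ Subgroup.centralizer (S₁ : Set Y) := by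
      rw [hZdef, map_inf_centralizer L.subtype_injective, hSL]
    have hZn : Z.Normal := by
      refine Subgroup.normalizer_eq_top_iff.1 (top_le_iff.1 (E.sup.ge.trans (sup_le ?_ ?_)))
      · intro g hg
        exact Subgroup.le_normalizer_map L.subtype ⟨⟨g, hg⟩, by
          rw [Subgroup.normalizer_eq_top]; trivial, rfl⟩
      · intro s hs
        have h1 : cj s S₁ = S₁ := mem_Nz.1 (hS₁S hs)
        refine mem_Nz.2 ?_
        rw [hZ]
        show (S₁ ⊓ _).map (MulAut.conj s).toMonoidHom = _
        rw [map_inf_centralizer (MulAut.conj s).injective,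
          show S₁.map (MulAut.conj s).toMonoidHom = S₁ from h1]
    refine E.center_moved Z hZn (fun z hz => ?_) ?_
    · rw [hZ]
      exact ⟨hQS₁ (D.center_le_pCore hz), Subgroup.centralizer_le inf_le_left hz.2⟩
    · rw [hZ]
      exact hJS₁.trans (Subgroup.le_centralizer_iff.1 inf_le_right)
  obtain ⟨PN, hPN⟩ := S2768.result SL (constrained_normal D.constr L)
    (hLmax L E.normal E.not_le (SL : Subgroup L) (hSL.trans_le inf_le_left) (hJS₁.trans hSL.ge)
      (le_trans (show L ⊓ Q ≤ S₁ from fun x hx => hQS₁ hx.2) hSL.ge))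
    μ.ker F n hn hF ⟨QuotientGroup.quotientKerEquivOfSurjective μ hμ⟩ hZL
  set N' := Subgroup.normalClosure ((jt (SL : Subgroup L) : Subgroup L) : Set L) with hN'
  haveI : N'.Normal := Subgroup.normalClosure_normal
  set N := N'.map L.subtype with hNdef
  have hJL : (jt (SL : Subgroup L)).map L.subtype = J := by
    rw [← jt_map L.subtype_injective, hSL]
    exact jt_eq_of_le inf_le_left hJS₁
  have hNL : N ≤ L := Subgroup.map_subtype_le _
  have hJsyl : IsSyl p J N := by
    refine ⟨hJL ▸ Subgroup.map_mono Subgroup.subset_normalClosure, S.2.to_inf_left, ?_⟩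
    rw [hNdef, ← hJL, Subgroup.relIndex_map_map_of_injective _ _ L.subtype_injective,
      Subgroup.relIndex]
    have h := PN.not_dvd_index
    rw [hPN] at h
    exact h
  haveI hNn : N.Normal := by
    refine Subgroup.normalizer_eq_top_iff.1 (top_le_iff.1 (E.sup.ge.trans (sup_le ?_ ?_)))
    · intro g hg
      exact Subgroup.le_normalizer_map L.subtype ⟨⟨g, hg⟩, by
        rw [Subgroup.normalizer_eq_top]; trivial, rfl⟩
    · intro s hs
      refine mem_Nz.2 ?_
      let α : L ≃* L := MulAut.conjNormal s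
      have hc : L.subtype.comp α.toMonoidHom = (MulAut.conj s).toMonoidHom.comp L.subtype := by
        ext x; simp [α]
      have hJs : J.map (MulAut.conj s).toMonoidHom = J :=
        mem_Nz.1 (Nz_le_Nz_jt _ (Subgroup.le_normalizer hs))
      have hαJ : (jt (SL : Subgroup L)).map α.toMonoidHom = jt (SL : Subgroup L) := by
        refine Subgroup.map_injective L.subtype_injective ?_
        rw [Subgroup.map_map, hc, ← Subgroup.map_map, hJL, hJs]
      show (N'.map L.subtype).map (MulAut.conj s).toMonoidHom = _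
      rw [Subgroup.map_map, ← hc, ← Subgroup.map_map]
      congr 1
      exact (Subgroup.map_normalClosure _ α.toMonoidHom α.surjective).trans
        (congrArg Subgroup.normalClosure ((Subgroup.coe_map _ _).symm.trans
          (congrArg SetLike.coe hαJ)))
  have hSN' : (S : Subgroup Y) ⊓ N = J := hJsyl.inf_eq inf_le_left
  obtain ⟨hNM, -⟩ := D.frattini (N := N) (by rw [hSN']; exact D.jt_not_le)
  let SN : Sylow p N := (hJsyl.isP.comap_subtype (K := N)).toSylow hJsyl.idx
  have hSN : (SN : Subgroup N).map N.subtype = J := Subgroup.map_subgroupOf_eq_of_le hJsyl.le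
  have hSN0 : (SN : Subgroup N) = J.subgroupOf N := rfl
  obtain ⟨-, htop⟩ := D.frattini (N := N) (by rw [hSN']; exact D.jt_not_le)
  -- `N` is generated by two conjugates of `J`
  have hmax := hLmax N hNn hNM (SN : Subgroup N) (hSN.trans_le inf_le_left) hSN.ge
    (by rw [hSN, ← hSN']; exact le_inf (inf_le_right.trans hQS) inf_le_left)
  have hcl : Subgroup.normalClosure ((SN : Subgroup N) : Set N) = ⊤ := by
    set N₁ := Subgroup.normalClosure ((SN : Subgroup N) : Set N) with hN₁
    haveI : N₁.Normal := Subgroup.normalClosure_normal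
    have hJN₁ : J ≤ N₁.map N.subtype := hSN ▸ Subgroup.map_mono Subgroup.subset_normalClosure
    haveI hn : (N₁.map N.subtype).Normal := by
      refine Subgroup.normalizer_eq_top_iff.1 (top_le_iff.1 (htop.ge.trans (sup_le ?_ ?_)))
      · intro g hg
        exact Subgroup.le_normalizer_map N.subtype ⟨⟨g, hg⟩, by
          rw [Subgroup.normalizer_eq_top]; trivial, rfl⟩
      · intro s hs
        refine mem_Nz.2 ?_
        let α : N ≃* N := MulAut.conjNormal s
        have hc : N.subtype.comp α.toMonoidHom = (MulAut.conj s).toMonoidHom.comp N.subtype := by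
          ext x; simp [α]
        have hJs : J.map (MulAut.conj s).toMonoidHom = J :=
          mem_Nz.1 (Nz_le_Nz_jt _ (Subgroup.le_normalizer hs))
        have hαJ : (SN : Subgroup N).map α.toMonoidHom = (SN : Subgroup N) := by
          refine Subgroup.map_injective N.subtype_injective ?_
          rw [Subgroup.map_map, hc, ← Subgroup.map_map, hSN, hJs]
        show (N₁.map N.subtype).map (MulAut.conj s).toMonoidHom = _
        rw [Subgroup.map_map, ← hc, ← Subgroup.map_map]
        congr 1
        exact (Subgroup.map_normalClosure _ α.toMonoidHom α.surjective).trans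
          (congrArg Subgroup.normalClosure ((Subgroup.coe_map _ _).symm.trans
            (congrArg SetLike.coe hαJ)))
    have h1 : N ≤ N₁.map N.subtype := by
      show N'.map L.subtype ≤ _
      rw [Subgroup.map_le_iff_le_comap]
      refine Subgroup.normalClosure_le_normal fun x hx => hJN₁ ?_
      rw [← hJL]
      exact ⟨x, hx, rfl⟩
    refine eq_top_iff.2 fun x _ => ?_
    obtain ⟨y, hy, he⟩ := h1 x.2
    exact Subtype.ext he ▸ hy
  have hgen : ∃ g : N, J.subgroupOf N ⊔ cj g (J.subgroupOf N) = ⊤ := by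
    obtain ⟨g, hg⟩ : ∃ g : N, ¬ cj g (J.subgroupOf N) ≤ M.subgroupOf N := by
      by_contra h
      push Not at h
      refine hNM (Subgroup.subgroupOf_eq_top.1 (top_le_iff.1 (hcl.ge.trans ?_)))
      rw [Subgroup.normalClosure, Subgroup.closure_le]
      intro y hy
      obtain ⟨x, hx, hc⟩ := Group.mem_conjugatesOfSet_iff.1 hy
      obtain ⟨g, rfl⟩ := isConj_iff.1 hc
      exact h g (conj_mem_cj.2 (hSN0.le hx))
    refine ⟨g, by_contra fun hne => ?_⟩
    obtain ⟨X, hX, hle⟩ := (eq_top_or_exists_le_coatom _).resolve_left hne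
    obtain ⟨X₀, -, huniq⟩ := hmax
    have hM0 : M.subgroupOf N ≠ ⊤ := fun h => hNM (Subgroup.subgroupOf_eq_top.1 h)
    obtain ⟨X₁, hX₁, hle₁⟩ := (eq_top_or_exists_le_coatom _).resolve_left hM0
    have e1 := huniq X ⟨hX, hSN0.le.trans (le_sup_left.trans hle)⟩
    have e2 := huniq X₁ ⟨hX₁, hSN0.le.trans ((Subgroup.comap_mono (inf_le_left.trans D.SM)).trans hle₁)⟩
    -- the coatom over `M ∩ N` is `M ∩ N`
    have hXM : X ≤ M.subgroupOf N := by
      intro x hx
      have hXQ : X.map N.subtype ⊔ Q ≠ ⊤ := by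
        intro he
        refine hX.1 (eq_top_iff.2 fun y _ => ?_)
        have hy : (y : Y) ∈ X.map N.subtype ⊔ Q := he ▸ Subgroup.mem_top _
        obtain ⟨_, ⟨a, ha, rfl⟩, q, hq, hyq⟩ := Subgroup.mem_sup_of_normal_right.1 hy
        have hq' : q = (a : Y)⁻¹ * y := by rw [← hyq]; simp
        have hqN : q ∈ N := hq' ▸ mul_mem (inv_mem a.2) y.2
        have hqJ : q ∈ J := hSN' ▸ ⟨hQS hq, hqN⟩
        have hqX : (⟨q, hqN⟩ : N) ∈ X := hle (Subgroup.mem_sup_left hqJ)
        have := mul_mem ha hqX
        rwa [show a * ⟨q, hqN⟩ = y from Subtype.ext hyq] at this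
      refine D.jt_over le_sup_right ((fun z hz => Subgroup.mem_sup_left
        ⟨⟨z, hJsyl.le hz⟩, hle (Subgroup.mem_sup_left hz), rfl⟩ : J ≤ X.map N.subtype ⊔ Q)) hXQ
        (Subgroup.mem_sup_left ⟨x, hx, rfl⟩)
    exact hg ((le_sup_right.trans hle).trans hXM)
  have hQN : (Q.subgroupOf N).Normal := (inferInstance : Q.Normal).subgroupOf N
  have hVn := E.Vn
  have hQJ : Q ⊓ N ≤ J := fun q hq => hSN' ▸ ⟨hQS hq.1, hq.2⟩
  have hH : CDQuad.Hyp p (Q.subgroupOf N) (J.subgroupOf N) (V.subgroupOf N) (Z₀.subgroupOf N) :=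
    { Qn := hQN
      Jp := SN.2
      QJ := fun x hx => hQJ ⟨hx, x.2⟩
      Vn := hVn.subgroupOf N
      VQ := Subgroup.comap_mono E.VQ
      cent := fun q hq v hv => Subtype.ext (E.cent q hq v hv)
      Zc := fun z hz => Subgroup.mem_center_iff.2 fun g =>
        Subtype.ext (Subgroup.mem_center_iff.1 (E.Z0c hz) g)
      idx := fun u hu huQ => by
        have e1 : (V.subgroupOf N ⊓ Subgroup.centralizer ({u} : Set N)).map N.subtype =
            V ⊓ N ⊓ Subgroup.centralizer ({(u : Y)} : Set Y) := by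
          ext y
          constructor
          · rintro ⟨x, ⟨hx1, hx2⟩, rfl⟩
            exact ⟨⟨hx1, x.2⟩, Subgroup.mem_centralizer_singleton_iff.2
              (congrArg Subtype.val (Subgroup.mem_centralizer_singleton_iff.1 hx2))⟩
          · rintro ⟨⟨h1, h2⟩, h3⟩
            exact ⟨⟨y, h2⟩, ⟨h1, Subgroup.mem_centralizer_singleton_iff.2
              (Subtype.ext (Subgroup.mem_centralizer_singleton_iff.1 h3))⟩, rfl⟩
        have e2 : (V.subgroupOf N).map N.subtype = V ⊓ N := Subgroup.subgroupOf_map_subtype V N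
        have e3 : (Q.subgroupOf N).map N.subtype = J ⊓ Q := by
          rw [Subgroup.subgroupOf_map_subtype]
          exact le_antisymm (le_inf hQJ inf_le_left) (le_inf inf_le_right (inf_le_left.trans hJsyl.le))
        have h := E.idx N hNn hJsyl.le u hu huQ
        rw [← e1, ← e2, ← e3, Subgroup.card_map_of_injective N.subtype_injective,
          Subgroup.card_map_of_injective N.subtype_injective,
          Subgroup.card_map_of_injective N.subtype_injective] at h
        rwa [CDQuad.card_subgroupOf hJsyl.le]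
      quad := fun a ha b hb v hv => E.quad a ha b hb v hv
      gen := hgen }
  rcases hH.result with hn | ⟨u, huJ, huQ, hu⟩
  · exfalso
    refine D.ab_not (Subgroup.normalizer_eq_top_iff.1 (top_le_iff.1 (htop.ge.trans (sup_le ?_ ?_))))
    · intro g hg
      show g ∈ Subgroup.normalizer (Cfsg.inducedFunctor CDQuad.cdAb J : Set Y)
      rw [← hSN, inducedFunctor_map_of_injective (CDQuad.cdAb_charP p) N.subtype
        N.subtype_injective SN.2]
      haveI : (Cfsg.inducedFunctor CDQuad.cdAb (SN : Subgroup N)).Normal := hn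
      exact Subgroup.le_normalizer_map N.subtype ⟨⟨g, hg⟩, by
        rw [Subgroup.normalizer_eq_top]; trivial, rfl⟩
    · exact (Subgroup.le_normalizer.trans (Nz_le_Nz_jt _)).trans
        (normalizer_le_Nz_W (isConjugacyFunctor_induced (CDQuad.cdAb_charP p)) hJsyl.isP)
  refine ⟨u, huJ.1, fun h => huQ h, fun U W hUW hUQ => ?_⟩
  haveI hWn : W.Normal := hUW.2.2.1
  have hab : ⁅U, U⁆ ≤ W := by
    have hch := chief_map (QuotientGroup.mk'_surjective W) hUW (QuotientGroup.ker_mk' W).le
    rw [QuotientGroup.map_mk'_self] at hch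
    obtain ⟨hcomm, -⟩ := elementary_of_chief_bot (p := p) hch
      ((Cores.pCore_isPGroup.to_le hUQ).map _)
    rw [Subgroup.commutator_le]
    intro a ha b hb
    refine (QuotientGroup.eq_one_iff _).1 ?_
    show QuotientGroup.mk' W ⁅a, b⁆ = 1
    rw [map_commutatorElement, commutatorElement_eq_one_iff_commute]
    exact congrArg Subtype.val (hcomm.1.1 ⟨_, ⟨a, ha, rfl⟩⟩ ⟨_, ⟨b, hb, rfl⟩⟩)
  refine quadratic_of_normal u.2 (fun U₁ V₁ hU₁ hU₁Q a b x hx => ?_) hUW hUQ hab
  exact hu U₁ V₁ hU₁ hU₁Q (Subgroup.commutator_mem_commutator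
    (Subgroup.commutator_mem_commutator hx ⟨a, rfl⟩) ⟨b, rfl⟩)

end Fail

end Cfsg.Agent.CF.FocalThree
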