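import Cfsg.Agent.CF.FocalOdd.Functors
import Cfsg.Agent.CF.MinimalFailure
import Cfsg.Agent.CF.CDQuad.Basic
import Cfsg.Agent.FFMin.Main

/-!
The two functors for the transfer theorem at the prime three, and the module
`V / (Z(S) ∩ Z(G))` in a minimal failure.
-/

set_option autoImplicit false
set_option linter.style.haveILetI false

open scoped commutatorElement

namespace Cfsg.Agent.CF.FocalThree

open Cfsg.Agent.Fusion Cfsg.Agent.Modules Cfsg.Agent.CF.FocalOdd
open LAE79 (fixV mem_fixV)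

universe u

/-- The centre as a functor. -/
def centerFun : ∀ (Q : Type u) [Group Q], Subgroup Q := fun Q _ => Subgroup.center Q

/-- `Z(P)` inside the ambient group. -/
abbrev zc {X : Type*} [Group X] (P : Subgroup X) : Subgroup X :=
  P ⊓ Subgroup.centralizer (P : Set X)

theorem induced_centerFun {X : Type u} [Group X] (P : Subgroup X) :
    Cfsg.inducedFunctor centerFun P = zc P := by
  show (Subgroup.center P).map P.subtype = _
  rw [← Subgroup.centralizer_univ, ← Subgroup.coe_top, ← top_inf_eq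
    (Subgroup.centralizer ((⊤ : Subgroup P) : Set P)), map_inf_centralizer P.subtype_injective,
    ← MonoidHom.range_eq_map, Subgroup.range_subtype]

theorem centerFun_charP (p : ℕ) [Fact p.Prime] : Cfsg.IsCharPFunctor.{u} p centerFun := by
  refine ⟨fun Q _ _ hQ hne => ?_, fun Q R _ _ _ _ φ => ?_⟩
  · haveI := hne
    exact (Subgroup.nontrivial_iff_ne_bot _).1 hQ.center_nontrivial
  · show (Subgroup.center Q).map φ.toMonoidHom = Subgroup.center R
    rw [← Subgroup.centralizer_univ, ← Subgroup.centralizer_univ, ← Subgroup.coe_top,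
      ← Subgroup.coe_top, ← top_inf_eq (Subgroup.centralizer ((⊤ : Subgroup Q) : Set Q)),
      map_inf_centralizer (f := φ.toMonoidHom) φ.injective,
      Subgroup.map_top_of_surjective _ φ.surjective, top_inf_eq]

/-- The family of the two functors. -/
def family : Set (∀ (Q : Type u) [Group Q], Subgroup Q) := {centerFun, compJt CDQuad.cdAb}

theorem family_charP (p : ℕ) [Fact p.Prime] : ∀ W ∈ family.{u}, Cfsg.IsCharPFunctor.{u} p W := by
  rintro W (rfl | rfl)
  exacts [centerFun_charP p, compJt_charP (CDQuad.cdAb_charP p)]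

theorem centerFun_mem : centerFun ∈ family.{u} := Set.mem_insert _ _

theorem compJt_mem : compJt CDQuad.cdAb ∈ family.{u} := Set.mem_insert_of_mem _ rfl

variable {Y : Type u} [Group Y] [Finite Y] {p : ℕ} [Fact p.Prime]

/-- The situation of a minimal failure. -/
structure Fail (p : ℕ) [Fact p.Prime] (S : Sylow p Y) (M : Subgroup Y) : Prop where
  constr : Constrained p Y
  SM : (S : Subgroup Y) ≤ M
  Mne : M ≠ ⊤
  uniq : ∀ H : Subgroup Y, (S : Subgroup Y) ≤ H → H ≠ ⊤ → H ≤ M
  ctrl : ∀ H P : Subgroup Y, H ≠ ⊤ → IsSyl p P H → TrIn (Fam family.{u} Y) H P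
  norm : ∀ (H P : Subgroup Y), Cfsg.pCore p Y ≤ P → IsSyl p P H → P ⊓ ⁅H, H⁆ ≤ ⁅M, M⁆ → H ≤ M
  center_not : ¬ (zc (S : Subgroup Y)).Normal
  ab_not : ¬ (Cfsg.inducedFunctor CDQuad.cdAb (jt (S : Subgroup Y))).Normal

namespace Fail

variable {S : Sylow p Y} {M : Subgroup Y} (D : Fail p S M)
include D

/-- A normal subgroup meeting `S` outside `O_p` covers everything with `S`. -/
theorem frattini {N : Subgroup Y} [N.Normal] (h : ¬ (S : Subgroup Y) ⊓ N ≤ Cfsg.pCore p Y) :
    ¬ N ≤ M ∧ N ⊔ (S : Subgroup Y) = ⊤ := by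
  have h1 : ¬ N ≤ M := by
    intro hN
    have hS : (S : Subgroup Y) ≤ Nz ((S : Subgroup Y) ⊓ N) := fun s hs => mem_Nz.2 (by
      rw [cj_inf, cj_eq_self_of_mem hs, cj_eq_of_normal])
    have h2 := D.uniq _ hS (Nz_ne_top_of_not_le_pCore (p := p) S.2.to_inf_left h)
    refine D.Mne (eq_top_iff.2 fun x _ => ?_)
    obtain ⟨n, hn, y, -, hy, rfl⟩ := (isSyl_sylow S).frattini (N := N) le_top
      (by rw [Nz, Subgroup.normalizer_eq_top]) (Subgroup.mem_top x)
    exact mul_mem (hN hn) (h2 hy)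
  exact ⟨h1, by_contra fun hne => h1 (le_sup_left.trans (D.uniq _ le_sup_right hne))⟩

theorem center_le_pCore : (S : Subgroup Y) ⊓ Subgroup.centralizer ((S : Subgroup Y) : Set Y) ≤
    Cfsg.pCore p Y :=
  inf_le_right.trans ((Subgroup.centralizer_le (Cores.pCore_le_sylow S)).trans D.constr)

theorem jt_not_le : ¬ jt (S : Subgroup Y) ≤ Cfsg.pCore p Y := by
  intro h
  set Q := Cfsg.pCore p Y
  have hQS : Q ≤ (S : Subgroup Y) := Cores.pCore_le_sylow S
  have hn : (jt (S : Subgroup Y)).Normal := by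
    refine Subgroup.normalizer_eq_top_iff.1 (top_le_iff.1 fun g _ => ?_)
    have h1 := Nz_le_Nz_jt Q (by rw [Nz, Subgroup.normalizer_eq_top]; trivial : g ∈ Nz Q)
    rwa [jt_eq_of_le hQS h] at h1
  refine D.ab_not (Subgroup.normalizer_eq_top_iff.1 (top_le_iff.1 ?_))
  exact ((Subgroup.normalizer_eq_top (H := jt (S : Subgroup Y))).ge).trans
    (normalizer_le_Nz_W (isConjugacyFunctor_induced (CDQuad.cdAb_charP p)) S.2.to_inf_left)

theorem central_false (h : zc (S : Subgroup Y) ≤ Subgroup.center Y) : False :=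
  D.center_not (Subgroup.normalizer_eq_top_iff.1 (top_le_iff.1 fun g _ =>
    Subgroup.centralizer_le_normalizer _ (Subgroup.mem_centralizer_iff.2 fun z hz =>
      (Subgroup.mem_center_iff.1 (h hz) g).symm)))

/-- Every proper subgroup over `Q J̃(S)` lies in `M`. -/
theorem jt_over {H : Subgroup Y} (hQ : Cfsg.pCore p Y ≤ H) (hJ : jt (S : Subgroup Y) ≤ H)
    (hH : H ≠ ⊤) : H ≤ M := by
  classical
  set Q := Cfsg.pCore p Y with hQdef
  set J := jt (S : Subgroup Y) with hJdef
  by_contra hHM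
  obtain ⟨H₁, ⟨hQ₁, hJ₁, hne₁, hM₁⟩, hmax⟩ := Set.exists_max_image
    {H : Subgroup Y | Q ≤ H ∧ J ≤ H ∧ H ≠ ⊤ ∧ ¬ H ≤ M}
    (fun H => Nat.card ((S : Subgroup Y) ⊓ H : Subgroup Y)) (Set.toFinite _) ⟨H, hQ, hJ, hH, hHM⟩
  set P := (S : Subgroup Y) ⊓ H₁ with hP
  have hQS : Q ≤ (S : Subgroup Y) := Cores.pCore_le_sylow S
  have hQP : Q ≤ P := le_inf hQS hQ₁
  have hJP : J ≤ P := le_inf inf_le_left hJ₁
  have hPS : P ≠ (S : Subgroup Y) := fun he => hM₁ (D.uniq _ (he ▸ inf_le_right) hne₁)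
  have hgrow : ∀ X : Subgroup Y, Q ≤ X → J ≤ X → X ≠ ⊤ → (S : Subgroup Y) ⊓ Nz P ≤ X → X ≤ M := by
    intro X hQX hJX hX hle
    by_contra hXM
    have h1 : P < (S : Subgroup Y) ⊓ Nz P :=
      lt_normalizer_inf S.2 (lt_of_le_of_ne inf_le_left hPS)
    have h2 : Nat.card P < Nat.card ((S : Subgroup Y) ⊓ X : Subgroup Y) :=
      lt_of_le_of_ne (Subgroup.card_le_of_le (h1.le.trans (le_inf inf_le_left hle)))
        fun he => h1.not_ge ((le_inf inf_le_left hle).trans
          (Subgroup.eq_of_le_of_card_ge (h1.le.trans (le_inf inf_le_left hle)) he.ge).ge)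
    exact absurd (hmax X ⟨hQX, hJX, hX, hXM⟩) (not_le.2 h2)
  -- `P` is Sylow in `H₁ ⊓ M`
  obtain ⟨R, hR, hPR⟩ := exists_isSyl_ge (H := H₁ ⊓ M) (p := p) (U := P) S.2.to_inf_left
    (le_inf inf_le_right (inf_le_left.trans D.SM))
  obtain ⟨m, hm, hmR⟩ := (IsSyl.sylow_inf D.SM).exists_conj_le hR.isP (hR.le.trans inf_le_right)
  have hmJ : cj m J = J := by
    have h1 : jt (cj m (S : Subgroup Y)) = cj m J := jt_map (MulAut.conj m).injective _
    have h2 : Cfsg.thompsonSubgroupAOf (S : Subgroup Y) ≤ R := (thompson_le_jt _).trans (hJP.trans hPR)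
    set Ja := Cfsg.thompsonSubgroupAOf (S : Subgroup Y)
    have h3 : cj m Ja = Ja := by
      refine Subgroup.eq_of_le_of_card_ge ?_ (card_cj m Ja).ge
      refine cj_le_iff.2 ?_
      rw [show Ja = sSup (maxAbIn (S : Subgroup Y)) from thompsonSubgroupAOf_eq_sSup _]
      refine sSup_le fun E hE => cj_le_iff.1 ?_
      refine le_sSup ⟨(cj_mono m ((le_thompsonSubgroupAOf hE).trans h2)).trans hmR, comm_map _ hE.2.1,
        fun B hB hBc => ?_⟩
      show _ ≤ Nat.card (cj m E : Subgroup Y)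
      rw [card_cj]
      exact hE.2.2 B hB hBc
    have h4 : cj m (Cfsg.centerThompsonAOf (S : Subgroup Y)) =
        Cfsg.centerThompsonAOf (S : Subgroup Y) := by
      show (Cfsg.thompsonSubgroupAOf (S : Subgroup Y) ⊓ _).map _ = _
      rw [map_inf_centralizer (MulAut.conj m).injective]
      rw [show Subgroup.map (MulAut.conj m).toMonoidHom (Cfsg.thompsonSubgroupAOf (S : Subgroup Y)) = Ja
        from h3]
      rfl
    refine Subgroup.eq_of_le_of_card_ge ?_ (card_cj m J).ge
    refine le_inf ((cj_mono m (hJP.trans hPR)).trans hmR) ?_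
    refine (cj_mono m inf_le_right).trans ?_
    conv_rhs => rw [← h4]
    rintro _ ⟨x, hx, rfl⟩
    rw [Subgroup.mem_centralizer_iff]
    rintro _ ⟨z, hz, rfl⟩
    rw [← map_mul, ← map_mul, Subgroup.mem_centralizer_iff.1 hx z hz]
  have hmH : cj m H₁ ∈ {H : Subgroup Y | Q ≤ H ∧ J ≤ H ∧ H ≠ ⊤ ∧ ¬ H ≤ M} := by
    refine ⟨?_, ?_, fun he => hne₁ ?_, fun he => hM₁ ?_⟩
    · rw [← cj_eq_of_normal m Q]; exact cj_mono m hQ₁
    · rw [← hmJ]; exact cj_mono m hJ₁
    · rw [← cj_inv_cj m H₁, he, cj_top]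
    · rw [← cj_inv_cj m H₁]; exact (cj_mono _ he).trans (cj_eq_self_of_mem (inv_mem hm)).le
  have hRP : R = P := by
    refine (Subgroup.eq_of_le_of_card_ge hPR ?_).symm
    refine le_trans ?_ (hmax _ hmH)
    rw [← card_cj m R]
    exact Subgroup.card_le_of_le (le_inf hmR (cj_mono m (hR.le.trans inf_le_left)))
  -- `P` is Sylow in `H₁`
  obtain ⟨P₁, hP₁, hPP₁⟩ := exists_isSyl_ge (H := H₁) (p := p) (U := P) S.2.to_inf_left inf_le_right
  have hPH : IsSyl p P H₁ := by
    rcases hPP₁.eq_or_lt with he | hlt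
    · exact he ▸ hP₁
    exfalso
    have h1 := lt_normalizer_inf hP₁.isP hlt
    have hnotM : ¬ P₁ ⊓ Nz P ≤ M := fun hle => h1.not_ge (by
      have := hR.eq_of_le (hP₁.isP.to_le (inf_le_left : P₁ ⊓ Nz P ≤ P₁)) (hRP ▸ h1.le)
        (le_inf (inf_le_left.trans hP₁.le) hle)
      rw [this, hRP])
    refine hnotM (inf_le_right.trans (hgrow _ (hQP.trans Subgroup.le_normalizer)
      (hJP.trans Subgroup.le_normalizer) (Nz_ne_top_of_not_le_pCore (p := p) S.2.to_inf_left
        fun hle => D.jt_not_le (hJP.trans hle)) inf_le_right))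
  -- all the normalisers lie in `M`
  refine hM₁ (D.norm H₁ P hQP hPH ((D.ctrl H₁ P hne₁ hPH).trans (iSup₂_le ?_)))
  rintro _ ⟨W, hW, rfl⟩
  refine inf_le_right.trans (Subgroup.commutator_mono ?_ ?_)
  all_goals
    refine inf_le_right.trans ?_
    dsimp only
    rcases hW with rfl | rfl
    · rw [induced_centerFun]
      have hZc : Cfsg.IsConjugacyFunctor p (fun X : Subgroup Y => zc X) := by
        have := isConjugacyFunctor_induced (X := Y) (centerFun_charP.{u} p)
        rwa [show Cfsg.inducedFunctor centerFun = fun X : Subgroup Y => zc X from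
          funext induced_centerFun] at this
      have hPn : P ≤ Nz (zc P) :=
        Subgroup.le_normalizer.trans (normalizer_le_Nz_W hZc S.2.to_inf_left)
      refine hgrow _ (hQP.trans hPn) (hJP.trans hPn) ?_ ?_
      · intro htop
        haveI hn : (zc P).Normal := Subgroup.normalizer_eq_top_iff.1 htop
        haveI : (Subgroup.centralizer (zc P : Set Y)).Normal := by infer_instance
        have hPC : P ≤ Subgroup.centralizer (zc P : Set Y) :=
          Subgroup.le_centralizer_iff.1 inf_le_right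
        obtain ⟨-, hsup⟩ := D.frattini (N := Subgroup.centralizer (zc P : Set Y))
          fun hle => D.jt_not_le ((le_inf inf_le_left (hJP.trans hPC)).trans hle)
        have hzP : zc (S : Subgroup Y) ≤ zc P := fun x hx =>
          ⟨hQP (D.center_le_pCore hx), Subgroup.centralizer_le (inf_le_left : P ≤ (S : Subgroup Y)) hx.2⟩
        refine D.central_false fun z hz => Subgroup.mem_center_iff.2 fun g => ?_
        have h2 : (⊤ : Subgroup Y) ≤ Subgroup.centralizer ({z} : Set Y) := hsup ▸ sup_le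
          (fun c hc => Subgroup.mem_centralizer_singleton_iff.2
            ((Subgroup.mem_centralizer_iff.1 hc z (hzP hz)).symm))
          (fun s hs => Subgroup.mem_centralizer_singleton_iff.2
            (Subgroup.mem_centralizer_iff.1 hz.2 s hs))
        exact Subgroup.mem_centralizer_singleton_iff.1 (h2 (Subgroup.mem_top g))
      · exact inf_le_right.trans (normalizer_le_Nz_W hZc S.2.to_inf_left)
    · rw [induced_compJt (CDQuad.cdAb_charP p) S.2.to_inf_left, jt_eq_of_le inf_le_left hJP]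
      have hconj := isConjugacyFunctor_induced (X := Y) (CDQuad.cdAb_charP.{u} p)
      have hJp : IsPGroup p (jt (S : Subgroup Y)) := S.2.to_inf_left
      exact D.uniq _ ((Subgroup.le_normalizer.trans (Nz_le_Nz_jt _)).trans
        (normalizer_le_Nz_W hconj hJp)) fun htop => D.ab_not (Subgroup.normalizer_eq_top_iff.1 htop)

end Fail

variable (p) in
/-- What the offender structure says inside the group. -/
structure Layer (S : Sylow p Y) (M L K V Z₀ : Subgroup Y) : Prop where
  normal : L.Normal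
  sup : L ⊔ (S : Subgroup Y) = ⊤
  knormal : K.Normal
  K_le : K ≤ L
  jtL : jt (S : Subgroup Y) ≤ L
  QL : Cfsg.pCore p Y ≤ L
  cover : ∀ N : Subgroup Y, N.Normal → jt (S : Subgroup Y) ≤ N → L ≤ N ⊔ K
  not_le : ¬ L ≤ M
  center_moved : ∀ Z : Subgroup Y, Z.Normal → zc (S : Subgroup Y) ≤ Z →
    ¬ jt (S : Subgroup Y) ≤ Subgroup.centralizer (Z : Set Y)
  sl2 : ∃ (F : Type) (_ : Field F) (_ : Fintype F) (n : ℕ) (ρ : L →* Matrix.SpecialLinearGroup (Fin 2) F),
    1 ≤ n ∧ Fintype.card F = p ^ n ∧ Function.Surjective ρ ∧ ρ.ker.map L.subtype = K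
  Vn : V.Normal
  VQ : V ≤ Cfsg.pCore p Y
  cent : ∀ q ∈ Cfsg.pCore p Y, ∀ v ∈ V, q * v = v * q
  Z0c : Z₀ ≤ Subgroup.center Y
  idx : ∀ N : Subgroup Y, N.Normal → jt (S : Subgroup Y) ≤ N →
    ∀ u ∈ jt (S : Subgroup Y), u ∉ Cfsg.pCore p Y →
      Nat.card (jt (S : Subgroup Y)) *
          Nat.card (V ⊓ N ⊓ Subgroup.centralizer ({u} : Set Y) : Subgroup Y) ≤
        Nat.card (jt (S : Subgroup Y) ⊓ Cfsg.pCore p Y : Subgroup Y) * Nat.card (V ⊓ N : Subgroup Y)
  quad : ∀ a ∈ jt (S : Subgroup Y), ∀ b ∈ jt (S : Subgroup Y), ∀ v ∈ V, ⁅b, ⁅a, v⁆⁆ ∈ Z₀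

omit [Finite Y] [Fact p.Prime] in
theorem card_eq_map_mul {Z H : Subgroup Y} [Z.Normal] (h : Z ≤ H) :
    Nat.card H = Nat.card (H.map (QuotientGroup.mk' Z)) * Nat.card Z := by
  have e1 := ((QuotientGroup.mk' Z).ker.subgroupOf H).card_mul_index
  rw [show ((QuotientGroup.mk' Z).ker.subgroupOf H).index = (QuotientGroup.mk' Z).ker.relIndex H
    from rfl, Subgroup.relIndex_ker, QuotientGroup.ker_mk',
    Nat.card_congr (Subgroup.subgroupOfEquivOfLe h).toEquiv] at e1
  rw [← e1, mul_comm]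

namespace Fail

variable {S : Sylow p Y} {M : Subgroup Y} (D : Fail p S M)
include D

set_option maxHeartbeats 1600000 in
theorem exists_layer (hp : p ≠ 2) : ∃ L K V Z₀ : Subgroup Y, Layer p S M L K V Z₀ := by
  classical
  set Q := Cfsg.pCore p Y with hQdef
  have hQS : Q ≤ (S : Subgroup Y) := Cores.pCore_le_sylow S
  set Zs := zc (S : Subgroup Y) with hZs
  set Z₀ := Zs ⊓ Subgroup.center Y with hZ₀
  haveI hZ₀n : Z₀.Normal := ⟨fun z hz g => by
    rwa [Subgroup.mem_center_iff.1 hz.2 g, mul_inv_cancel_right]⟩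
  have hZscomm : ∀ a ∈ Zs, ∀ b ∈ Zs, Commute a b := fun a ha b hb =>
    Subgroup.mem_centralizer_iff.1 hb.2 a ha.1
  let Z₁ : Subgroup Y :=
    { carrier := {z | z ∈ Zs ∧ z ^ p ∈ Z₀}
      one_mem' := ⟨one_mem Zs, by rw [one_pow]; exact one_mem Z₀⟩
      mul_mem' := fun {a b} ha hb => ⟨mul_mem ha.1 hb.1, by
        rw [(hZscomm a ha.1 b hb.1).mul_pow]; exact mul_mem ha.2 hb.2⟩
      inv_mem' := fun {a} ha => ⟨inv_mem ha.1, by rw [inv_pow]; exact inv_mem ha.2⟩ }
  have hZ₀₁ : Z₀ ≤ Z₁ := fun z hz => ⟨hz.1, pow_mem hz p⟩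
  have hZ₁s : Z₁ ≤ Zs := fun z hz => hz.1
  have hZ₁ : ¬ Z₁ ≤ Z₀ := by
    intro hle
    refine D.central_false fun z hz => ?_
    obtain ⟨k, hk⟩ := S.2 ⟨z, hz.1⟩
    have hk' : z ^ p ^ k ∈ Z₀ := by
      rw [show z ^ p ^ k = 1 by simpa using congrArg Subtype.val hk]; exact one_mem _
    have hdown : ∀ j, z ^ p ^ j ∈ Z₀ → z ∈ Z₀ := by
      intro j
      induction j with
      | zero => intro h; simpa using h
      | succ j ih =>
        intro h
        refine ih (hle ⟨pow_mem hz _, ?_⟩)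
        rwa [← pow_mul, ← pow_succ]
    exact (hdown k hk').2
  -- an element of `Z₁` that is moved only inside `Z₀` lies in `Z₀`
  have hcentral : ∀ z ∈ Z₁, (∀ y : Y, ⁅y, z⁆ ∈ Z₀) → z ∈ Z₀ := by
    intro z hz hy
    refine ⟨hz.1, Subgroup.mem_center_iff.2 fun y => commutatorElement_eq_one_iff_commute.1 ?_⟩
    let f : Y →* Y :=
      { toFun := fun y => ⁅y, z⁆
        map_one' := commutatorElement_one_left z
        map_mul' := fun a b => by
          rw [show ⁅a * b, z⁆ = a * ⁅b, z⁆ * a⁻¹ * ⁅a, z⁆ by simp only [commutatorElement_def]; group,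
            Subgroup.mem_center_iff.1 (hy b).2 a, mul_inv_cancel_right]
          exact ((Subgroup.mem_center_iff.1 (hy b).2 ⁅a, z⁆).symm) }
    obtain ⟨k, hk⟩ := IsPGroup.iff_card.1 ((S.2.to_le (H := f.range) (by
      rintro _ ⟨y, rfl⟩; exact (hy y).1.1)))
    have h1 : (S : Subgroup Y) ≤ f.ker := fun s hs => MonoidHom.mem_ker.2
      (commutatorElement_eq_one_iff_commute.2 (Subgroup.mem_centralizer_iff.1 hz.1.2 s hs))
    have h2 := Subgroup.index_dvd_of_le h1
    rw [Subgroup.index_ker, hk] at h2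
    rcases Nat.eq_zero_or_pos k with h0 | h0
    · rw [h0, pow_zero] at hk
      exact Subgroup.mem_bot.1 ((Subgroup.eq_bot_of_card_eq _ hk) ▸ (⟨y, rfl⟩ : f y ∈ f.range))
    · exact absurd ((dvd_pow_self p h0.ne').trans h2) S.not_dvd_index
  set V := Subgroup.normalClosure (Z₁ : Set Y) with hV
  haveI hVn : V.Normal := Subgroup.normalClosure_normal
  let ZQ : Subgroup Y :=
    { carrier := {x | x ∈ zc Q ∧ x ^ p ∈ Z₀}
      one_mem' := ⟨one_mem (zc Q), by rw [one_pow]; exact one_mem Z₀⟩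
      mul_mem' := fun {a b} ha hb => ⟨mul_mem ha.1 hb.1, by
        have hab : Commute a b := Subgroup.mem_centralizer_iff.1 hb.1.2 a ha.1.1
        rw [hab.mul_pow]; exact mul_mem ha.2 hb.2⟩
      inv_mem' := fun {a} ha => ⟨inv_mem ha.1, by rw [inv_pow]; exact inv_mem ha.2⟩ }
  haveI : ZQ.Normal := ⟨fun x hx g => by
    haveI : (zc Q).Normal := by rw [zc]; infer_instance
    exact ⟨(inferInstance : (zc Q).Normal).conj_mem x hx.1 g, by
      rw [conj_pow]; exact hZ₀n.conj_mem _ hx.2 g⟩⟩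
  have hVZQ : V ≤ ZQ := Subgroup.normalClosure_le_normal fun z hz =>
    ⟨⟨D.center_le_pCore hz.1, Subgroup.centralizer_le hQS hz.1.2⟩, hz.2⟩
  have hVQ : V ≤ Q := fun v hv => (hVZQ hv).1.1
  have hcentQ : ∀ q ∈ Q, ∀ v ∈ V, q * v = v * q := fun q hq v hv =>
    Subgroup.mem_centralizer_iff.1 (hVZQ hv).1.2 q hq
  have hZ₀V : Z₀ ≤ V := fun z hz => Subgroup.subset_normalClosure (hZ₀₁ hz)
  have hVab : IsMulCommutative V := ⟨⟨fun a b => Subtype.ext (hcentQ a (hVQ a.2) b b.2)⟩⟩
  -- the module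
  set mq := QuotientGroup.mk' Z₀ with hmq
  set Vb := V.map mq with hVb
  haveI hVbn : Vb.Normal := hVn.map mq (QuotientGroup.mk'_surjective Z₀)
  haveI hVc : IsMulCommutative Vb := comm_map mq hVab
  letI : CommGroup Vb := { (inferInstance : Group Vb) with mul_comm := hVc.1.1 }
  set φ : Y →* MulAut Vb := (MulAut.conjNormal : (Y ⧸ Z₀) →* MulAut Vb).comp mq with hφ
  let π : Y →* φ.range := φ.rangeRestrict
  have hπs : Function.Surjective π := MonoidHom.rangeRestrict_surjective φ
  letI : DistribMulAction φ.range (Additive Vb) :=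
    { smul := fun g v => Additive.ofMul ((g : MulAut Vb) v.toMul)
      one_smul := fun v => rfl
      mul_smul := fun g h v => rfl
      smul_zero := fun g => map_one (g : MulAut Vb)
      smul_add := fun g a b => map_mul (g : MulAut Vb) a.toMul b.toMul }
  let el : ∀ v ∈ V, Additive Vb := fun v hv => Additive.ofMul ⟨mq v, Subgroup.mem_map_of_mem mq hv⟩
  have hel : ∀ x : Additive Vb, ∃ v, ∃ hv : v ∈ V, el v hv = x := by
    intro x
    obtain ⟨v, hv, he⟩ := x.toMul.2
    exact ⟨v, hv, Additive.toMul.injective (Subtype.ext he)⟩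
  have hel_mul : ∀ a (ha : a ∈ V) b (hb : b ∈ V), el (a * b) (mul_mem ha hb) = el a ha + el b hb :=
    fun a ha b hb => Additive.toMul.injective (Subtype.ext (map_mul mq a b))
  have hel_eq : ∀ a (ha : a ∈ V) b (hb : b ∈ V), el a ha = el b hb ↔ a⁻¹ * b ∈ Z₀ := by
    intro a ha b hb
    rw [← QuotientGroup.eq]
    exact ⟨fun h => congrArg (fun x : Additive Vb => ((x.toMul : Vb) : Y ⧸ Z₀)) h,
      fun h => Additive.toMul.injective (Subtype.ext h)⟩
  have hsm : ∀ (y : Y) v (hv : v ∈ V), π y • el v hv = el (y * v * y⁻¹) (hVn.conj_mem v hv y) := by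
    intro y v hv
    refine Additive.toMul.injective (Subtype.ext ?_)
    show ((MulAut.conjNormal (mq y) (⟨mq v, _⟩ : Vb) : Vb) : Y ⧸ Z₀) = mq (y * v * y⁻¹)
    rw [MulAut.conjNormal_apply, map_mul, map_mul, map_inv]
  have hfix : ∀ (y : Y) v (hv : v ∈ V), π y • el v hv = el v hv ↔ ⁅y, v⁆ ∈ Z₀ := by
    intro y v hv
    rw [hsm y v hv, eq_comm, hel_eq v hv _ (hVn.conj_mem v hv y)]
    rw [show v⁻¹ * (y * v * y⁻¹) = v⁻¹ * ⁅y, v⁆ * v⁻¹⁻¹ by simp only [commutatorElement_def]; group]
    constructor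
    · intro h
      have := hZ₀n.conj_mem _ h v
      simpa [mul_assoc] using this
    · exact fun h => hZ₀n.conj_mem _ h v⁻¹
  have hel_comm : ∀ (y : Y) v (hv : v ∈ V) (hw : ⁅y, v⁆ ∈ V),
      el ⁅y, v⁆ hw = π y • el v hv - el v hv := by
    intro y v hv hw
    rw [eq_sub_iff_add_eq, hsm y v hv, ← hel_mul ⁅y, v⁆ hw v hv]
    exact (hel_eq _ (mul_mem hw hv) _ (hVn.conj_mem v hv y)).2 (by
      simp [commutatorElement_def, mul_assoc])
  set C₁ : Subgroup Y := π.ker with hC₁
  haveI : C₁.Normal := by rw [hC₁]; infer_instance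
  have hker : ∀ y : Y, y ∈ C₁ ↔ ∀ v ∈ V, ⁅y, v⁆ ∈ Z₀ := by
    intro y
    rw [hC₁, MonoidHom.mem_ker]
    refine ⟨fun h v hv => (hfix y v hv).1 (by rw [h, one_smul]), fun h => ?_⟩
    refine Subtype.ext (MulEquiv.ext fun x => ?_)
    obtain ⟨v, hv, he⟩ := hel (Additive.ofMul x)
    have h1 := (hfix y v hv).2 (h v hv)
    rw [he] at h1
    exact congrArg Additive.toMul h1
  have hQC : Q ≤ C₁ := fun q hq => (hker q).2 fun v hv => by
    rw [commutatorElement_eq_one_iff_commute.2 (hcentQ q hq v hv)]; exact one_mem _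
  have hC₁S : (S : Subgroup Y) ⊓ C₁ ≤ Q ∧ C₁ ≤ M := by
    have hbad : C₁ ⊔ (S : Subgroup Y) = ⊤ → False := fun htop => hZ₁ fun z hz =>
      hcentral z hz fun y => by
        have hy : y ∈ C₁ ⊔ (S : Subgroup Y) := htop ▸ Subgroup.mem_top y
        obtain ⟨c, hc, s, hs, rfl⟩ := Subgroup.mem_sup_of_normal_left.1 hy
        have h1 : ⁅s, z⁆ = 1 :=
          commutatorElement_eq_one_iff_commute.2 (Subgroup.mem_centralizer_iff.1 hz.1.2 s hs)
        rw [show ⁅c * s, z⁆ = c * ⁅s, z⁆ * c⁻¹ * ⁅c, z⁆ by simp only [commutatorElement_def]; group,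
          h1, mul_one, mul_inv_cancel, one_mul]
        exact (hker c).1 hc z (Subgroup.subset_normalClosure hz)
    exact ⟨by_contra fun h => hbad (D.frattini h).2,
      le_sup_left.trans (D.uniq _ le_sup_right hbad)⟩
  have hJC : ¬ jt (S : Subgroup Y) ≤ C₁ := fun h =>
    D.jt_not_le ((le_inf inf_le_left h).trans hC₁S.1)
  let T : Sylow p φ.range := S.mapSurjective hπs
  have hT : (T : Subgroup φ.range) = (S : Subgroup Y).map π := Sylow.coe_mapSurjective hπs S
  set M' : Subgroup φ.range := M.map π with hM'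
  have hkerM : π.ker ≤ M := hC₁S.2
  have hexp : ∀ v : Additive Vb, p • v = 0 := by
    intro x
    obtain ⟨v, hv, rfl⟩ := hel x
    refine Additive.toMul.injective (Subtype.ext ?_)
    show ((⟨mq v, _⟩ : Vb) ^ p : Vb).1 = 1
    rw [SubmonoidClass.coe_pow, ← map_pow]
    exact (QuotientGroup.eq_one_iff _).2 (hVZQ hv).2
  have hT₁ : ∀ z (hz : z ∈ Z₁), el z (Subgroup.subset_normalClosure hz) ∈
      fixV (V := Additive Vb) (T : Subgroup φ.range) := by
    intro z hz g hg
    rw [hT] at hg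
    obtain ⟨s, hs, rfl⟩ := hg
    refine (hfix s z (Subgroup.subset_normalClosure hz)).2 ?_
    rw [commutatorElement_eq_one_iff_commute.2 (Subgroup.mem_centralizer_iff.1 hz.1.2 s hs)]
    exact one_mem _
  have H₀ : FFMin.Hyp (Additive Vb) p T M' :=
    { faith := fun g hg => Subtype.ext (MulEquiv.ext fun v =>
        Additive.ofMul.injective (hg (Additive.ofMul v)))
      exp := hexp
      ne := fun he => hJC fun x hx => MonoidHom.mem_ker.2 (by
        have : π x ∈ (T : Subgroup φ.range) := hT.symm ▸ ⟨x, hx.1, rfl⟩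
        rwa [he, Subgroup.mem_bot] at this)
      TM := hT ▸ Subgroup.map_mono D.SM
      Mne := fun he => D.Mne (by
        rw [← Subgroup.comap_map_eq_self hkerM, ← hM', he, Subgroup.comap_top])
      uniq := fun L hL hTL => by
        rw [hT, Subgroup.map_le_iff_le_comap] at hTL
        rw [← Subgroup.map_comap_eq_self_of_surjective hπs L]
        exact Subgroup.map_mono (D.uniq _ hTL fun he => hL (by
          rw [← Subgroup.map_comap_eq_self_of_surjective hπs L, he,
            Subgroup.map_top_of_surjective π hπs]))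
      core := fun N hN hNp => by
        haveI := hN
        set X := N.comap π with hX
        haveI : X.Normal := hN.comap π
        by_cases h : (S : Subgroup Y) ⊓ X ≤ Q
        · refine (Subgroup.eq_bot_iff_forall N).2 fun n hn => ?_
          have hnT : n ∈ (T : Subgroup φ.range) :=
            Cores.pCore_le_sylow T (Cores.le_pCore hN hNp hn)
          rw [hT] at hnT
          obtain ⟨s, hs, rfl⟩ := hnT
          exact hQC (h ⟨hs, hn⟩)
        · exfalso
          obtain ⟨-, hsup⟩ := D.frattini h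
          have htop : N ⊔ (T : Subgroup φ.range) = ⊤ := by
            have e := congrArg (Subgroup.map π) hsup
            rwa [Subgroup.map_sup, hX, Subgroup.map_comap_eq_self_of_surjective hπs,
              Subgroup.map_top_of_surjective π hπs, ← hT] at e
          have hTM' : N ⊔ (T : Subgroup φ.range) ≤ M' := by
            rw [← T.3 (hNp.to_sup_of_normal_left T.2) le_sup_right |>.symm]
            exact hT ▸ Subgroup.map_mono D.SM
          rw [htop] at hTM'
          exact D.Mne (by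
            rw [← Subgroup.comap_map_eq_self hkerM, ← hM', top_le_iff.1 hTM', Subgroup.comap_top])
      moved := by
        by_contra h
        push Not at h
        exact hZ₁ fun z hz => hcentral z hz fun y =>
          (hfix y z (Subgroup.subset_normalClosure hz)).1 (h _ (hT₁ z hz) (π y) trivial)
      span := by
        refine eq_top_iff.2 fun v _ => ?_
        set X := AddSubgroup.closure {x | ∃ (g : φ.range) (u : Additive Vb),
          u ∈ fixV (V := Additive Vb) (T : Subgroup φ.range) ∧ g • u = x} with hX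
        suffices h : ∀ y, ∀ hy : y ∈ V, el y hy ∈ X by
          obtain ⟨y, hy, rfl⟩ := hel v
          exact h y hy
        intro y hy
        have hy' : y ∈ Subgroup.closure (Group.conjugatesOfSet (Z₁ : Set Y)) := hy
        induction hy' using Subgroup.closure_induction with
        | mem x hx =>
          obtain ⟨z, hz, hc⟩ := Group.mem_conjugatesOfSet_iff.1 hx
          obtain ⟨g, rfl⟩ := isConj_iff.1 hc
          exact AddSubgroup.subset_closure ⟨π g, _, hT₁ z hz, hsm g z (Subgroup.subset_normalClosure hz)⟩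
        | one =>
          rw [show el 1 hy = 0 from Additive.toMul.injective (Subtype.ext (map_one mq))]
          exact zero_mem X
        | mul a b ha hb iha ihb =>
          rw [hel_mul a ha b hb]
          exact add_mem (iha ha) (ihb hb)
        | inv a ha iha =>
          rw [show el a⁻¹ hy = -el a ha from Additive.toMul.injective (Subtype.ext (map_inv mq a))]
          exact neg_mem (iha ha) }
  -- the members
  have hZ₀E : ∀ E ∈ maxAbIn (S : Subgroup Y), Z₀ ≤ E := fun E hE z hz =>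
    mem_maxAbIn_of_centralizing hE hz.1.1 (Subgroup.mem_centralizer_iff.2 fun e _ =>
      Subgroup.mem_center_iff.1 hz.2 e)
  have hmem : ∀ E ∈ maxAbIn (S : Subgroup Y),
      (E.map π = ⊥ ∨ FFMin.Off (Additive Vb) p (E.map π)) ∧
      ∀ v (hv : v ∈ V), el v hv ∈ fixV (V := Additive Vb) (E.map π) → v ∈ E := by
    intro E hE
    haveI := hE.2.1
    have hp' : IsPGroup p (E.map π) := (S.2.to_le hE.1).map π
    have hc' : IsMulCommutative (E.map π) := comm_map π hE.2.1
    set E₀ := E ⊓ Q with hE₀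
    have hZ₀E₀ : Z₀ ≤ E₀ := le_inf (hZ₀E E hE) (hZ₀V.trans hVQ)
    have hcomm : IsMulCommutative (E₀ ⊔ V : Subgroup Y) :=
      FFMin.comm_sup (FFMin.comm_of_le hE.2.1 inf_le_left) hVab fun a ha b hb => hcentQ a ha.2 b hb
    have h1 : Nat.card (E₀ ⊔ V : Subgroup Y) ≤ Nat.card E :=
      hE.2.2 _ (sup_le (inf_le_left.trans hE.1) (hVQ.trans hQS)) hcomm
    have h2 := FFMin.card_sup_mul_inf hcomm
    have h3 : Nat.card E = Nat.card (E.map π) * Nat.card E₀ := by
      have e1 := (π.ker.subgroupOf E).card_mul_index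
      have e2 : π.ker.subgroupOf E = E₀.subgroupOf E := by
        ext x
        rw [Subgroup.mem_subgroupOf, Subgroup.mem_subgroupOf]
        exact ⟨fun h => ⟨x.2, hC₁S.1 ⟨hE.1 x.2, h⟩⟩, fun h => hQC h.2⟩
      rw [show (π.ker.subgroupOf E).index = π.ker.relIndex E from rfl, Subgroup.relIndex_ker, e2,
        Nat.card_congr (Subgroup.subgroupOfEquivOfLe (inf_le_left : E₀ ≤ E)).toEquiv] at e1
      rw [← e1, mul_comm]
    set I := (E₀ ⊓ V).map mq with hI
    have hInj : ∀ x ∈ I, x ∈ Vb := fun x hx => Subgroup.map_mono inf_le_right hx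
    let j : I → fixV (V := Additive Vb) (E.map π) := fun x =>
      ⟨Additive.ofMul ⟨x.1, hInj _ x.2⟩, by
        obtain ⟨w, hw, he⟩ := x.2
        rintro _ ⟨e, he', rfl⟩
        have : (Additive.ofMul (⟨x.1, hInj _ x.2⟩ : Vb)) = el w hw.2 :=
          Additive.toMul.injective (Subtype.ext he.symm)
        rw [this]
        refine (hfix e w hw.2).2 ?_
        rw [commutatorElement_eq_one_iff_commute.2
          (congrArg Subtype.val (hE.2.1.1.1 ⟨e, he'⟩ ⟨w, hw.1.1⟩))]
        exact one_mem _⟩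
    have hj : Function.Injective j := fun x y h => Subtype.ext
      (congrArg (fun z : fixV (V := Additive Vb) (E.map π) =>
        (((z : Additive Vb).toMul : Vb) : Y ⧸ Z₀)) h)
    have h4 : Nat.card I ≤ Nat.card (fixV (V := Additive Vb) (E.map π)) :=
      Nat.card_le_card_of_injective j hj
    have hwt := H₀.wt_le hp' hc'
    rw [FFMin.wt, show Nat.card (Additive Vb) = Nat.card Vb from rfl] at hwt
    have h5 : Nat.card Vb ≤ Nat.card (E.map π) * Nat.card I := by
      refine Nat.le_of_mul_le_mul_right ?_ (Nat.card_pos (α := Z₀))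
      refine Nat.le_of_mul_le_mul_left ?_ (Nat.card_pos (α := E₀))
      calc Nat.card E₀ * (Nat.card Vb * Nat.card Z₀) = Nat.card E₀ * Nat.card V := by
            rw [card_eq_map_mul hZ₀V]
        _ = Nat.card (E₀ ⊔ V : Subgroup Y) * Nat.card (E₀ ⊓ V : Subgroup Y) := h2.symm
        _ ≤ Nat.card (E.map π) * Nat.card E₀ * Nat.card (E₀ ⊓ V : Subgroup Y) :=
            Nat.mul_le_mul_right _ (h3 ▸ h1)
        _ = _ := by rw [card_eq_map_mul (le_inf hZ₀E₀ hZ₀V)]; ring
    have h6 : Nat.card (fixV (V := Additive Vb) (E.map π)) ≤ Nat.card I :=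
      Nat.le_of_mul_le_mul_left (hwt.trans h5) Nat.card_pos
    refine ⟨?_, fun v hv hvf => ?_⟩
    · by_cases h0 : E.map π = ⊥
      · exact Or.inl h0
      refine Or.inr ⟨hp', h0, hc', le_antisymm (H₀.wt_le hp' hc') ?_⟩
      rw [FFMin.wt, show Nat.card (Additive Vb) = Nat.card Vb from rfl]
      exact h5.trans (Nat.mul_le_mul_left _ h4)
    · obtain ⟨x, hx⟩ := ((Nat.bijective_iff_injective_and_card j).2
        ⟨hj, le_antisymm h4 h6⟩).2 ⟨_, hvf⟩
      obtain ⟨w, hw, he⟩ := x.2
      have h7 : mq w = mq v := he.trans (congrArg (fun z : fixV (V := Additive Vb) (E.map π) =>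
        (((z : Additive Vb).toMul : Vb) : Y ⧸ Z₀)) hx)
      rw [show v = w * (w⁻¹ * v) by group]
      exact mul_mem hw.1.1 (hZ₀E E hE (QuotientGroup.eq.1 h7))
  have hJa : ∃ E ∈ maxAbIn (S : Subgroup Y), FFMin.Off (Additive Vb) p (E.map π) := by
    by_contra h
    push Not at h
    set Ja := Cfsg.thompsonSubgroupAOf (S : Subgroup Y) with hJadef
    have hall : Ja ≤ C₁ := by
      rw [hJadef, thompsonSubgroupAOf_eq_sSup]
      refine sSup_le fun E hE x hx => ?_
      have h' := (hmem E hE).1.resolve_right (h E hE)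
      rw [Subgroup.map_eq_bot_iff] at h'
      exact h' hx
    have hJQ : Ja ≤ Q := fun x hx => hC₁S.1 ⟨thompsonSubgroupAOf_le _ hx, hall hx⟩
    have hJaQ : Cfsg.thompsonSubgroupAOf Q = Ja := thompsonSubgroupAOf_eq_of_le hQS hJQ
    -- `Z(J_A(S))` is then normal
    set Zc := Cfsg.centerThompsonAOf (S : Subgroup Y) with hZcdef
    haveI hZn : Zc.Normal := by
      refine Subgroup.normalizer_eq_top_iff.1 (top_le_iff.1 fun g _ => ?_)
      have h1 := normalizer_le_normalizer_centerThompsonAOf Q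
        (by rw [Subgroup.normalizer_eq_top]; trivial : g ∈ Subgroup.normalizer (Q : Set Y))
      rwa [Cfsg.centerThompsonAOf, hJaQ] at h1
    haveI : (Subgroup.centralizer (Zc : Set Y)).Normal := by infer_instance
    obtain ⟨-, hsup⟩ := D.frattini (N := Subgroup.centralizer (Zc : Set Y))
      (fun hle => D.jt_not_le hle)
    refine hZ₁ fun z hz => ⟨hz.1, Subgroup.mem_center_iff.2 fun g => ?_⟩
    have hzZc : z ∈ Zc := by
      refine ⟨?_, ?_⟩
      · obtain ⟨E, hE⟩ := maxAbIn_nonempty (S : Subgroup Y)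
        exact le_thompsonSubgroupAOf hE (mem_maxAbIn_of_centralizing hE hz.1.1
          (Subgroup.centralizer_le hE.1 hz.1.2))
      · exact Subgroup.centralizer_le (thompsonSubgroupAOf_le _) hz.1.2
    have h2 : (⊤ : Subgroup Y) ≤ Subgroup.centralizer ({z} : Set Y) := hsup ▸ sup_le
      (fun c hc => Subgroup.mem_centralizer_singleton_iff.2
        ((Subgroup.mem_centralizer_iff.1 hc z hzZc).symm))
      (fun s hs => Subgroup.mem_centralizer_singleton_iff.2
        (Subgroup.mem_centralizer_iff.1 hz.1.2 s hs))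
    exact Subgroup.mem_centralizer_singleton_iff.1 (h2 (Subgroup.mem_top g))
  -- points fixed by all members
  have hcent : ∀ v : Additive Vb, (∀ E : Subgroup φ.range, FFMin.Off (Additive Vb) p E →
      E ≤ (T : Subgroup φ.range) → v ∈ fixV (V := Additive Vb) E) →
      ∀ x ∈ jt (S : Subgroup Y), π x • v = v := by
    intro v hv x hx
    obtain ⟨y, hy, rfl⟩ := hel v
    have hyE : ∀ E ∈ maxAbIn (S : Subgroup Y), y ∈ E := by
      intro E hE
      refine (hmem E hE).2 y hy ?_
      rcases (hmem E hE).1 with h | h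
      · rw [h]; intro g hg; rw [Subgroup.mem_bot.1 hg, one_smul]
      · exact hv _ h (hT ▸ Subgroup.map_mono hE.1)
    have hyZ : y ∈ Cfsg.centerThompsonAOf (S : Subgroup Y) := by
      obtain ⟨E, hE⟩ := maxAbIn_nonempty (S : Subgroup Y)
      refine ⟨le_thompsonSubgroupAOf hE (hyE E hE), mem_centralizer_thompsonSubgroupAOf_iff.2
        fun E' hE' => Subgroup.mem_centralizer_iff.2 fun e he => ?_⟩
      exact congrArg Subtype.val (hE'.2.1.1.1 ⟨e, he⟩ ⟨y, hyE E' hE'⟩)
    refine (hfix x y hy).2 ?_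
    rw [commutatorElement_eq_one_iff_commute.2 (Subgroup.mem_centralizer_iff.1 hx.2 y hyZ).symm]
    exact one_mem _
  obtain ⟨E₁, hE₁, hE₁off⟩ := hJa
  have hE₁T : E₁.map π ≤ (T : Subgroup φ.range) := hT ▸ Subgroup.map_mono hE₁.1
  obtain ⟨A, L', hS', hL'M⟩ := H₀.exists_struct hp ⟨_, hE₁off, hE₁T⟩ (by
    intro v hv hv0 g hg
    obtain ⟨y, rfl⟩ := hπs g
    refine ⟨y, D.jt_over (H := (MulAction.stabilizer φ.range v).comap π) ?_ ?_ ?_ hg, rfl⟩
    · intro q hq
      show π q • v = v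
      rw [MonoidHom.mem_ker.1 (hQC hq), one_smul]
    · exact fun x hx => hcent v hv x hx
    · intro htop
      refine hv0 fun g' _ => ?_
      obtain ⟨z, rfl⟩ := hπs g'
      exact (htop ▸ Subgroup.mem_top z : z ∈ (MulAction.stabilizer φ.range v).comap π))
  have hE₁A : E₁.map π = A := hS'.unique _ hE₁off hE₁T
  have hJA : (jt (S : Subgroup Y)).map π ≤ A := by
    rintro _ ⟨x, hx, rfl⟩
    refine hS'.axis _ (hT ▸ ⟨x, hx.1, rfl⟩) fun v hv => hcent v (fun E hE hET => ?_) x hx
    rw [hS'.unique E hE hET]; exact hv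
  have hAJ : A ≤ (jt (S : Subgroup Y)).map π :=
    hE₁A ▸ Subgroup.map_mono ((le_thompsonSubgroupAOf hE₁).trans (thompson_le_jt _))
  haveI := hS'.normal
  have hKL : π.ker ≤ L'.comap π := π.ker_le_comap L'
  have hAL : A ≤ L' := by
    rw [← hS'.closure]; exact Subgroup.subset_normalClosure
  -- the index condition
  set J := jt (S : Subgroup Y) with hJdef
  have hidx : ∀ N : Subgroup Y, N.Normal → J ≤ N → ∀ u ∈ J, u ∉ Q →
      Nat.card J * Nat.card (V ⊓ N ⊓ Subgroup.centralizer ({u} : Set Y) : Subgroup Y) ≤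
        Nat.card (J ⊓ Q : Subgroup Y) * Nat.card (V ⊓ N : Subgroup Y) := by
    intro N hN hJN u hu huQ
    have hu1 : π u ≠ 1 := fun h => huQ (hC₁S.1 ⟨hu.1, h⟩)
    have huA : π u ∈ A := hJA ⟨u, hu, rfl⟩
    let W : AddSubgroup (Additive Vb) :=
      { carrier := {x | ∃ v, ∃ hv : v ∈ V, v ∈ N ∧ el v hv = x}
        zero_mem' := ⟨1, one_mem V, one_mem N, Additive.toMul.injective (Subtype.ext (map_one mq))⟩
        add_mem' := by
          rintro _ _ ⟨a, ha, haN, rfl⟩ ⟨b, hb, hbN, rfl⟩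
          exact ⟨a * b, mul_mem ha hb, mul_mem haN hbN, hel_mul a ha b hb⟩
        neg_mem' := by
          rintro _ ⟨a, ha, haN, rfl⟩
          exact ⟨a⁻¹, inv_mem ha, inv_mem haN, Additive.toMul.injective (Subtype.ext (map_inv mq a))⟩ }
    have hcW : FFMin.cmV (Additive Vb) A ≤ W := by
      refine FFMin.cmV_le_iff.2 fun a ha x => ?_
      obtain ⟨b, hb, rfl⟩ := hAJ ha
      obtain ⟨v, hv, rfl⟩ := hel x
      have hw : ⁅b, v⁆ ∈ V := by
        rw [commutatorElement_def]; exact mul_mem (hVn.conj_mem v hv b) (inv_mem hv)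
      refine ⟨⁅b, v⁆, hw, ?_, hel_comm b v hv hw⟩
      · rw [show ⁅b, v⁆ = b * (v * b⁻¹ * v⁻¹) by simp only [commutatorElement_def]; group]
        exact mul_mem (hJN hb) (hN.conj_mem _ (inv_mem (hJN hb)) v)
    have key : ∀ c : FFMin.cmV (Additive Vb) A, ∃ v, ∃ hv : v ∈ V, v ∈ N ∧
        π u • el v hv - el v hv = c := by
      intro c
      obtain ⟨w, hw⟩ := hS'.disp _ huA hu1 _ c.2
      obtain ⟨g, x, hx, hgx⟩ := hS'.span w
      obtain ⟨y, rfl⟩ := hπs g
      obtain ⟨v, hv, hvN, rfl⟩ := hcW hx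
      refine ⟨y * v * y⁻¹, hVn.conj_mem v hv y, hN.conj_mem v hvN y, ?_⟩
      rw [← hsm y v hv, ← hw]
      have h := hgx (π u) huA
      rw [smul_sub] at h
      exact (sub_eq_sub_iff_sub_eq_sub.1 h).symm
    choose v hv hvN hvc using key
    set Cu := V ⊓ N ⊓ Subgroup.centralizer ({u} : Set Y) with hCu
    have hj : Nat.card (FFMin.cmV (Additive Vb) A) * Nat.card Cu ≤
        Nat.card (V ⊓ N : Subgroup Y) := by
      rw [← Nat.card_prod]
      refine Nat.card_le_card_of_injective (fun c : FFMin.cmV (Additive Vb) A × Cu =>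
        (⟨v c.1 * c.2, mul_mem (hv c.1) c.2.2.1.1, mul_mem (hvN c.1) c.2.2.1.2⟩ :
          (V ⊓ N : Subgroup Y))) ?_
      intro c d h
      have h' : v c.1 * c.2 = v d.1 * d.2 := congrArg Subtype.val h
      have hval : ∀ c : FFMin.cmV (Additive Vb) A × Cu,
          π u • el (v c.1 * c.2) (mul_mem (hv c.1) c.2.2.1.1) -
            el (v c.1 * c.2) (mul_mem (hv c.1) c.2.2.1.1) = c.1 := by
        intro c
        have hc : π u • el (c.2 : Y) c.2.2.1.1 = el (c.2 : Y) c.2.2.1.1 := by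
          refine (hfix u (c.2 : Y) c.2.2.1.1).2 ?_
          rw [commutatorElement_eq_one_iff_commute.2
            (Subgroup.mem_centralizer_singleton_iff.1 c.2.2.2).symm]
          exact one_mem _
        rw [hel_mul (v c.1) (hv c.1) (c.2 : Y) c.2.2.1.1, smul_add, hc, add_sub_add_right_eq_sub, hvc]
      have h1 : c.1 = d.1 := by
        refine Subtype.ext ?_
        rw [← hval c, ← hval d]
        simp only [h']
      rw [h1] at h'
      exact Prod.ext h1 (Subtype.ext (mul_left_cancel h'))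
    rw [hS'.card_c] at hj
    have h3 : Nat.card J ≤ Nat.card A * Nat.card (J ⊓ Q : Subgroup Y) := by
      have e1 := (π.ker.subgroupOf J).card_mul_index
      have e2 : π.ker.subgroupOf J = (J ⊓ Q).subgroupOf J := by
        ext x
        rw [Subgroup.mem_subgroupOf, Subgroup.mem_subgroupOf]
        exact ⟨fun h => ⟨x.2, hC₁S.1 ⟨x.2.1, h⟩⟩, fun h => hQC h.2⟩
      rw [show (π.ker.subgroupOf J).index = π.ker.relIndex J from rfl, Subgroup.relIndex_ker, e2,
        Nat.card_congr (Subgroup.subgroupOfEquivOfLe (inf_le_left : J ⊓ Q ≤ J)).toEquiv] at e1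
      rw [← e1, mul_comm]
      exact Nat.mul_le_mul_right _ (Subgroup.card_le_of_le hJA)
    calc Nat.card J * Nat.card Cu ≤ Nat.card A * Nat.card (J ⊓ Q : Subgroup Y) * Nat.card Cu :=
          Nat.mul_le_mul_right _ h3
      _ = Nat.card (J ⊓ Q : Subgroup Y) * (Nat.card A * Nat.card Cu) := by ring
      _ ≤ _ := Nat.mul_le_mul_left _ hj
  have hquad : ∀ a ∈ J, ∀ b ∈ J, ∀ v ∈ V, ⁅b, ⁅a, v⁆⁆ ∈ Z₀ := by
    intro a ha b hb v hv
    have hw : ⁅a, v⁆ ∈ V := by
      rw [commutatorElement_def]; exact mul_mem (hVn.conj_mem v hv a) (inv_mem hv)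
    refine (hfix b _ hw).1 (hS'.quad ?_ _ (hJA ⟨b, hb, rfl⟩))
    have e := hel_comm a v hv hw
    rw [e]
    exact FFMin.sub_mem_cmV (hJA ⟨a, ha, rfl⟩) _
  obtain ⟨F, fF, ftF, n, hn, hF, ⟨ρ⟩⟩ := hS'.sl2
  refine ⟨L'.comap π, π.ker, V, Z₀,
    { normal := hS'.normal.comap π
      sup := ?_
      knormal := inferInstance
      K_le := hKL
      jtL := fun x hx => hAL (hJA ⟨x, hx, rfl⟩)
      QL := fun q hq => hKL (hQC hq)
      cover := fun N hN hJN => ?_
      not_le := fun h => hL'M ?_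
      center_moved := fun Z hZ hZ1 hc => hJC fun x hx => (hker x).2 fun v hv => ?_
      sl2 := ⟨F, fF, ftF, n, ρ.toMonoidHom.comp (π.subgroupComap L'), hn, hF, ?_, ?_⟩
      Vn := hVn
      VQ := hVQ
      cent := hcentQ
      Z0c := inf_le_right
      idx := hidx
      quad := hquad }⟩
  · have e : (L'.comap π ⊔ (S : Subgroup Y)).map π = ⊤ := by
      rw [Subgroup.map_sup, Subgroup.map_comap_eq_self_of_surjective hπs, ← hT, hS'.top]
    rw [← Subgroup.comap_top π, ← e, Subgroup.comap_map_eq_self]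
    exact hKL.trans le_sup_left
  · haveI := hN
    have h1 : L' ≤ N.map π := by
      rw [← hS'.closure]
      haveI := hN.map π hπs
      exact Subgroup.normalClosure_le_normal (hAJ.trans (Subgroup.map_mono hJN))
    exact (Subgroup.comap_mono h1).trans (Subgroup.comap_map_eq π N).le
  · rw [← Subgroup.map_comap_eq_self_of_surjective hπs L']; exact Subgroup.map_mono h
  · haveI := hZ
    have hvZ : v ∈ Z := Subgroup.normalClosure_le_normal (hZ₁s.trans hZ1) hv
    rw [commutatorElement_eq_one_iff_commute.2 (Subgroup.mem_centralizer_iff.1 (hc hx) v hvZ).symm]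
    exact one_mem _
  · exact ρ.surjective.comp (π.subgroupComap_surjective_of_surjective L' hπs)
  · ext y
    constructor
    · rintro ⟨x, hx, rfl⟩
      have h1 : π.subgroupComap L' x = 1 := ρ.injective (hx.trans (map_one ρ).symm)
      exact congrArg Subtype.val h1
    · intro hy
      refine ⟨⟨y, hKL hy⟩, ?_, rfl⟩
      show ρ (π.subgroupComap L' ⟨y, hKL hy⟩) = 1
      rw [show π.subgroupComap L' ⟨y, hKL hy⟩ = 1 from Subtype.ext hy, map_one]

end Fail

end Cfsg.Agent.CF.FocalThree
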